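import Cfsg.Agent.TwoGroup.CyclicNormal

/-! Automorphisms of order `p` of cyclic `p`-groups. -/

set_option autoImplicit false

namespace CfsgLib.TwoGroup

/-- Elements killed by `p` in `ZMod (p ^ (m + 1))`. -/
theorem exists_mul_pow_of_prime_mul_eq_zero {p m : ℕ} (hp : p.Prime) {y : ZMod (p ^ (m + 1))}
    (h : (p : ZMod (p ^ (m + 1))) * y = 0) :
    ∃ c : ℕ, c < p ∧ y = (p : ZMod (p ^ (m + 1))) ^ m * c := by
  have : NeZero (p ^ (m + 1)) := ⟨pow_ne_zero _ hp.ne_zero⟩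
  have h1 : p ^ (m + 1) ∣ p * y.val := by
    rw [← ZMod.natCast_eq_zero_iff, Nat.cast_mul, ZMod.natCast_zmod_val]
    exact h
  have h2 : p ^ m ∣ y.val := by
    exact Nat.dvd_of_mul_dvd_mul_left hp.pos ((dvd_of_eq (pow_succ' p m).symm).trans h1)
  obtain ⟨c, hc⟩ := h2
  refine ⟨c, ?_, ?_⟩
  · by_contra hcp
    have hlt := lt_of_lt_of_eq y.val_lt (pow_succ p m)
    rw [hc] at hlt
    exact absurd hlt (not_lt.2 (Nat.mul_le_mul_left _ (not_lt.1 hcp)))
  · rw [← ZMod.natCast_zmod_val y, hc, Nat.cast_mul, Nat.cast_pow]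

/-- For odd `p`, a `p`th root of unity in `ZMod (p ^ (m + 1))` is congruent to one modulo `p ^ m`. -/
theorem prime_mul_sub_one_eq_zero {p m : ℕ} (hp : p.Prime) (hodd : p ≠ 2)
    {x : ZMod (p ^ (m + 1))} (hx : x ^ p = 1) : (p : ZMod (p ^ (m + 1))) * (x - 1) = 0 := by
  have : Fact p.Prime := ⟨hp⟩
  have : NeZero (p ^ (m + 1)) := ⟨pow_ne_zero _ hp.ne_zero⟩
  have hd : p ∣ p ^ (m + 1) := dvd_pow_self p m.succ_ne_zero
  obtain ⟨w, hw⟩ : ∃ w, x = 1 + (p : ZMod (p ^ (m + 1))) * w := by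
    have h1 : ZMod.castHom hd (ZMod p) x = 1 := by
      have := congrArg (ZMod.castHom hd (ZMod p)) hx
      rwa [map_pow, map_one, ZMod.pow_card] at this
    have h2 : ((x.val : ℕ) : ZMod p) = ((1 : ℕ) : ZMod p) := by
      rw [Nat.cast_one, ← h1, ← map_natCast (ZMod.castHom hd (ZMod p)), ZMod.natCast_zmod_val]
    rw [ZMod.natCast_eq_natCast_iff'] at h2
    have hlt : 1 % p = 1 := Nat.one_mod_eq_one.2 hp.one_lt.ne'
    refine ⟨(x.val / p : ℕ), ?_⟩
    conv_lhs => rw [← ZMod.natCast_zmod_val x, ← Nat.mod_add_div x.val p, h2, hlt]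
    push_cast; ring
  have key : ∀ i : ℕ, ∃ z, x ^ i = 1 + (i : ZMod (p ^ (m + 1))) * (p * w) + (p : ZMod (p ^ (m + 1))) ^ 2 * z := by
    intro i
    induction i with
    | zero => exact ⟨0, by simp⟩
    | succ i ih =>
      obtain ⟨z, hz⟩ := ih
      refine ⟨z + (i : ZMod (p ^ (m + 1))) * w * w + p * z * w, ?_⟩
      rw [pow_succ x i, hz, hw]; push_cast; ring
  choose z hz using key
  have hsum : ∑ i ∈ Finset.range p, x ^ i =
      (p : ZMod (p ^ (m + 1))) * (1 + (p : ZMod (p ^ (m + 1))) *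
        (((p - 1) / 2 : ℕ) * w + ∑ i ∈ Finset.range p, z i)) := by
    have hgauss : ∑ i ∈ Finset.range p, i = p * ((p - 1) / 2) := by
      rw [Finset.sum_range_id]
      obtain ⟨k, hk⟩ := hp.odd_of_ne_two hodd
      rw [hk, show 2 * k + 1 - 1 = 2 * k by omega,
        show (2 * k + 1) * (2 * k) = (2 * k + 1) * k * 2 by ring, Nat.mul_div_cancel _ two_pos,
        show 2 * k / 2 = k by omega]
    rw [Finset.sum_congr rfl fun i _ => hz i, Finset.sum_add_distrib, Finset.sum_add_distrib,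
      ← Finset.sum_mul, ← Finset.mul_sum, ← Nat.cast_sum, hgauss, Finset.sum_const, Finset.card_range,
      nsmul_one]
    push_cast; ring
  have hunit : IsUnit (1 + (p : ZMod (p ^ (m + 1))) *
        (((p - 1) / 2 : ℕ) * w + ∑ i ∈ Finset.range p, z i)) := by
    refine IsNilpotent.isUnit_one_add ⟨m + 1, ?_⟩
    rw [mul_pow, ← Nat.cast_pow, ZMod.natCast_self, zero_mul]
  have hgeom := mul_geom_sum x p
  rw [hx, sub_self, hsum, ← mul_assoc] at hgeom
  rw [mul_comm]
  exact hunit.mul_left_eq_zero.1 hgeom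

variable {G : Type*} [Group G]

/-- The centraliser of the `p`th powers in a self-centralizing cyclic normal subgroup. -/
theorem relIndex_centralizer_pow [Finite G] {p : ℕ} [hp : Fact p.Prime] (hG : IsPGroup p G) {u : G}
    {m : ℕ} (hu : orderOf u = p ^ (m + 1)) (hn : (Subgroup.zpowers u).Normal)
    (hC : Subgroup.centralizer (Subgroup.zpowers u : Set G) = Subgroup.zpowers u)
    (hex : ∃ g ∈ Subgroup.centralizer ({u ^ p} : Set G), g ∉ Subgroup.zpowers u) :
    (Subgroup.zpowers u).relIndex (Subgroup.centralizer ({u ^ p} : Set G)) = p := by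
  obtain ⟨ψ, hψ, hker⟩ := exists_cyclicAction hu hn
  rw [hC] at hker
  set M := Subgroup.centralizer ({u ^ p} : Set G)
  have hMmem : ∀ x ∈ M, (p : ZMod (p ^ (m + 1))) * ((ψ x : ZMod (p ^ (m + 1))) - 1) = 0 := by
    intro x hx
    obtain ⟨a, ha, e⟩ := conj_zpow_of_action hψ x p
    have h' : x * u ^ (p : ℤ) * x⁻¹ = u ^ (p : ℤ) := by
      rw [mul_inv_eq_iff_eq_mul, zpow_natCast]
      exact Subgroup.mem_centralizer_singleton_iff.1 hx
    rw [h', zpow_eq_zpow_iff_cast hu] at e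
    push_cast at e
    rw [ha] at e
    linear_combination -e
  have h1 : (Subgroup.zpowers u).relIndex M = Nat.card (M.map ψ) := by
    have e1 : M.map ψ = (ψ.comp M.subtype).range := by
      rw [MonoidHom.range_comp, Subgroup.range_subtype]
    rw [e1, ← Subgroup.index_ker, ← MonoidHom.comap_ker, hker]; rfl
  obtain ⟨j, hj⟩ := IsPGroup.iff_card.1 ((hG.to_subgroup M).map ψ)
  have hle : Nat.card (M.map ψ) ≤ p := by
    refine le_trans (Nat.card_le_card_of_surjective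
      (fun c : {c : Fin p // ∃ x ∈ M, (ψ x : ZMod (p ^ (m + 1))) = 1 + (p : ZMod (p ^ (m + 1))) ^ m * c.1} =>
        (⟨ψ c.2.choose, Subgroup.mem_map_of_mem ψ c.2.choose_spec.1⟩ : M.map ψ)) ?_)
      (le_trans (Nat.card_le_card_of_injective _ Subtype.val_injective) (le_of_eq (Nat.card_fin p)))
    rintro ⟨_, x, hx, rfl⟩
    obtain ⟨c, hc, e⟩ := exists_mul_pow_of_prime_mul_eq_zero hp.out (hMmem x hx)
    have hc' : ∃ x' ∈ M, (ψ x' : ZMod (p ^ (m + 1))) = 1 + (p : ZMod (p ^ (m + 1))) ^ m * (⟨c, hc⟩ : Fin p).1 :=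
      ⟨x, hx, by linear_combination e⟩
    refine ⟨⟨⟨c, hc⟩, hc'⟩, Subtype.ext (Units.ext ?_)⟩
    show (ψ hc'.choose : ZMod (p ^ (m + 1))) = ψ x
    linear_combination hc'.choose_spec.2 - e
  rw [h1, hj]
  rw [hj] at hle
  obtain ⟨g, hg, hgU⟩ := hex
  rcases j with _ | _ | j
  · exfalso
    rw [pow_zero, Subgroup.card_eq_one] at hj
    refine hgU ?_
    have : ψ g ∈ M.map ψ := Subgroup.mem_map_of_mem ψ hg
    rw [hj, Subgroup.mem_bot] at this
    rw [← hker, MonoidHom.mem_ker]; exact this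
  · rw [zero_add, pow_one]
  · exact absurd hle (not_le.2 (lt_self_pow₀ hp.out.one_lt (by omega)))

end CfsgLib.TwoGroup
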